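import Cfsg.Agent.H97.SBDef
import Cfsg.Prelude.Def_Blocks
import Cfsg.Agent.S4492
import Cfsg.Agent.S0908
import Cfsg.Agent.ZJ.SolvFact
import Cfsg.Agent.Bal.Quot

set_option autoImplicit false

universe u

namespace Cfsg.Agent.H97.SB

open Cfsg

/-- a copy of a finite group in `Type` -/
theorem exists_copy (Q : Type u) [Group Q] [Finite Q] :
    ∃ (X : Type) (_ : Group X) (_ : Finite X), Nonempty (Q ≃* X) := by
  refine ⟨Shrink.{0} Q, inferInstance, inferInstance, ⟨(Shrink.mulEquiv.{0} (α := Q)).symm⟩⟩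

theorem card_conjClasses_congr {Q X : Type*} [Group Q] [Group X] (e : Q ≃* X) :
    Nat.card (ConjClasses Q) = Nat.card (ConjClasses X) := by
  refine Nat.card_congr ⟨ConjClasses.map e.toMonoidHom, ConjClasses.map e.symm.toMonoidHom, ?_, ?_⟩
  · intro c
    obtain ⟨a, rfl⟩ := ConjClasses.exists_rep c
    change ConjClasses.mk (e.symm (e a)) = _
    rw [e.symm_apply_apply]
  · intro c
    obtain ⟨a, rfl⟩ := ConjClasses.exists_rep c
    change ConjClasses.mk (e (e.symm a)) = _
    rw [e.apply_symm_apply]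

theorem pPrimeCore_bot_of_equiv {Q X : Type*} [Group Q] [Group X] {p : ℕ} (e : Q ≃* X)
    (h : pPrimeCore p Q = ⊥) : pPrimeCore p X = ⊥ := by
  rw [eq_bot_iff]
  refine sSup_le ?_
  rintro N ⟨hN, hc⟩
  have h1 : N.comap e.toMonoidHom ≤ pPrimeCore p Q := by
    refine le_sSup ⟨hN.comap _, ?_⟩
    have : Nat.card (N.comap e.toMonoidHom) = Nat.card N :=
      Nat.card_congr ⟨fun x => ⟨e x.1, x.2⟩, fun x => ⟨e.symm x.1, by
        change e (e.symm x.1) ∈ N
        rw [e.apply_symm_apply]; exact x.2⟩, fun x => Subtype.ext (e.symm_apply_apply x.1),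
        fun x => Subtype.ext (e.apply_symm_apply x.1)⟩
    rw [this]; exact hc
  rw [h] at h1
  intro x hx
  have h2 : e.symm x ∈ N.comap e.toMonoidHom := by
    change e (e.symm x) ∈ N
    rw [e.apply_symm_apply]; exact hx
  have h3 := Subgroup.mem_bot.1 (h1 h2)
  rw [Subgroup.mem_bot, ← e.apply_symm_apply x, h3, map_one]

theorem block_inv {G : Type u} [Group G] [Fintype G] (hsolv : Group.IsSolvable G) (p : ℕ) [Fact p.Prime]
    (M : Ideal AlgInt) (hM : IsPModular p M) (B : Set (IrrCharacter G)) (hB : IsPBlock M B)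
    (N : Subgroup G) [hN : N.Normal] [Fintype N] (hNdef : N = pPrimeCore p G) (θ : IrrCharacter N)
    (hinv : ∀ (g : G) (n : N), (θ : N → ℂ) ⟨g * n * g⁻¹, hN.conj_mem n n.2 g⟩ = (θ : N → ℂ) n)
    (χ : IrrCharacter G) (hχB : χ ∈ B) (hχ : classInner (fun n : N => (χ : G → ℂ) n) (θ : N → ℂ) ≠ 0)
    (hB1 : Nat.card {χ : IrrCharacter G // classInner (fun n : N => (χ : G → ℂ) n) (θ : N → ℂ) ≠ 0} ≤
      Nat.card (ConjClasses (G ⧸ N))) :
    ∃ (X : Type) (_ : Group X) (_ : Finite X), Group.IsSolvable X ∧ pPrimeCore p X = ⊥ ∧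
      (Nat.card X).factorization p = blockDefect p B ∧ Set.ncard B ≤ Nat.card (ConjClasses X) := by
  classical
  haveI := Cfsg.Agent.Blk.isPrime_of_isPModular hM
  have hpp : p.Prime := Fact.out
  obtain ⟨B0, hB0, hmem, hDef, -⟩ := S4492.result p M hM (ZJ.isPSolvable_of_isSolvable p hsolv) N hNdef θ hinv
  have hBB : B = B0 := by
    rw [Blk.isPBlock_eq_blockOf hB hχB, Blk.isPBlock_eq_blockOf hB0 ((hmem χ).2 hχ)]
  subst hBB
  obtain ⟨P⟩ : Nonempty (Sylow p G) := inferInstance
  have hc := S0908.result p M hM B hB P (hDef P)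
  have hd : (Nat.card G).factorization p = blockDefect p B := by
    rw [P.card_eq_multiplicity] at hc
    exact Nat.pow_right_injective hpp.two_le hc
  obtain ⟨X, hX1, hX2, ⟨e⟩⟩ := exists_copy (G ⧸ N)
  refine ⟨X, hX1, hX2, ?_, ?_, ?_, ?_⟩
  · haveI := hsolv
    haveI : Group.IsSolvable (G ⧸ N) := inferInstance
    exact Group.isSolvable_of_surjective (f := e.toMonoidHom) e.surjective
  · refine pPrimeCore_bot_of_equiv e ?_
    subst hNdef
    exact Bal.pPrimeCore_quot_bot
  · rw [← hd, ← Nat.card_congr e.toEquiv]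
    have h1 : Nat.card G = Nat.card (G ⧸ N) * Nat.card N := Subgroup.card_eq_card_quotient_mul_card_subgroup N
    have h2 : ¬ p ∣ Nat.card N := by
      subst hNdef
      exact H79.not_dvd_pPrimeCore
    rw [h1, Nat.factorization_mul Nat.card_pos.ne' Nat.card_pos.ne', Finsupp.add_apply,
      Nat.factorization_eq_zero_of_not_dvd h2, add_zero]
  · rw [← card_conjClasses_congr e]
    refine le_trans (le_of_eq ?_) hB1
    rw [← Nat.card_coe_set_eq]
    exact Nat.card_congr (Equiv.subtypeEquivRight fun ψ => hmem ψ)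

end Cfsg.Agent.H97.SB
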